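import Mathlib
import Cfsg.Agent.H1.Basic
import Cfsg.Agent.L0.GenFit
import Cfsg.Agent.L0.Coprime2
import Cfsg.Agent.L0.Fus.Alperin
import Cfsg.Agent.H1.QS3

set_option autoImplicit false
set_option linter.style.haveILetI false
set_option linter.unusedVariables false
set_option linter.unusedSectionVars false
set_option linter.unusedSimpArgs false

/-! Subgroups of characteristic `p`. -/

namespace Cfsg.Agent.H1

open Cfsg Subgroup Cfsg.Agent.L0

universe u
variable {G : Type u} [Group G]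

theorem nilp_commute {E : Type*} [Group E] [Finite E] (hE : Group.IsNilpotent E) {p q : ℕ} [Fact p.Prime] [Fact q.Prime] (hpq : p ≠ q)
    {A B : Subgroup E} (hA : IsPGroup p A) (hB : IsPGroup q B) {a b : E} (ha : a ∈ A) (hb : b ∈ B) : Commute a b := by
  obtain ⟨P, hP⟩ := hA.exists_le_sylow
  obtain ⟨Q, hQ⟩ := hB.exists_le_sylow
  have h1 := ((Group.isNilpotent_of_finite_tfae (G := E)).out 0 3).mp hE
  have hPn : (P : Subgroup E).Normal := h1 p inferInstance P
  have hQn : (Q : Subgroup E).Normal := h1 q inferInstance Q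
  exact Subgroup.commute_of_normal_of_disjoint _ _ hPn hQn (IsPGroup.disjoint_of_ne p q hpq _ _ P.2 Q.2) a b (hP ha) (hQ hb)

/-- ambient version of characteristic `p` -/
def CP (p : ℕ) (X : Subgroup G) : Prop :=
  ∃ Q : Subgroup G, Q ≤ X ∧ IsPGroup p Q ∧ X ≤ normalizer (Q : Set G) ∧ X ⊓ centralizer (Q : Set G) ≤ Q

/-- type version -/
theorem isPGroup_gf {X : Type*} [Group X] [Finite X] {p : ℕ} [hp : Fact p.Prime] {Q : Subgroup X} [hQn : Q.Normal] (hQ : IsPGroup p Q)
    (hC : centralizer (Q : Set X) ≤ Q) : IsPGroup p (generalizedFittingSubgroup X) := by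
  have hQF : Q ≤ fittingSubgroup X := (le_pCore hQ).trans (pCore_le_fittingSubgroup p X)
  have hlay : layer X ≤ Q := by
    refine le_trans ?_ hC
    have h1 := layer_commutator_fitting X
    rw [Subgroup.commutator_eq_bot_iff_le_centralizer] at h1
    intro x hx
    exact Subgroup.centralizer_le (SetLike.coe_subset_coe.mpr hQF) (h1 hx)
  have hfit : IsPGroup p (fittingSubgroup X) := by
    have hnil := fittingSubgroup_isNilpotent X
    -- every element of prime order has order p
    by_contra hno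
    have h2 : ¬ ∃ n, Nat.card (fittingSubgroup X) = p ^ n := fun ⟨n, hn⟩ => hno (IsPGroup.of_card hn)
    obtain ⟨q, hq, hqd, hqp⟩ : ∃ q : ℕ, q.Prime ∧ q ∣ Nat.card (fittingSubgroup X) ∧ q ≠ p := by
      by_contra hno2
      push Not at hno2
      apply h2
      exact ⟨_, (Nat.eq_prime_pow_of_unique_prime_dvd Nat.card_pos.ne' (fun {d} hd hdd => hno2 d hd hdd))⟩
    haveI : Fact q.Prime := ⟨hq⟩
    obtain ⟨x, hx⟩ := exists_prime_orderOf_dvd_card' q hqd
    have hxc : ((x : fittingSubgroup X) : X) ∈ centralizer (Q : Set X) := by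
      rw [mem_centralizer_iff]
      intro y hy
      have h3 : Commute (⟨y, hQF hy⟩ : fittingSubgroup X) x := by
        apply nilp_commute hnil (Ne.symm hqp) (A := Q.subgroupOf (fittingSubgroup X)) (B := zpowers x)
          (hQ.comap_of_injective _ (Subgroup.subtype_injective _)) (IsPGroup.of_card (n := 1) (by rw [Nat.card_zpowers, hx, pow_one]))
        · exact hy
        · exact mem_zpowers x
      exact congrArg Subtype.val h3.eq
    have hxQ := hC hxc
    obtain ⟨k, hk⟩ := (IsPGroup.iff_orderOf.mp hQ) ⟨_, hxQ⟩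
    have h4 : orderOf (⟨(x : X), hxQ⟩ : Q) = q := by
      rw [← Subgroup.orderOf_coe]
      change orderOf (x : X) = q
      rw [Subgroup.orderOf_coe]; exact hx
    rw [h4] at hk
    have h5 : q ∣ p ^ k := by rw [← hk]
    exact hqp ((Nat.prime_dvd_prime_iff_eq hq hp.out).mp (hq.dvd_of_dvd_pow h5))
  unfold generalizedFittingSubgroup
  rw [sup_eq_right.mpr (hlay.trans hQF)]
  exact hfit

theorem CP_iff [Finite G] {p : ℕ} [hp : Fact p.Prime] {X : Subgroup G} : CP p X ↔ IsPGroup p (generalizedFittingSubgroup X) := by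
  constructor
  · rintro ⟨Q, hQX, hQ, hN, hC⟩
    haveI : (Q.subgroupOf X).Normal := (Subgroup.normal_subgroupOf_iff_le_normalizer hQX).mpr hN
    apply isPGroup_gf (Q := Q.subgroupOf X) (hQ.comap_of_injective _ (Subgroup.subtype_injective _))
    intro x hx
    apply hC
    refine Subgroup.mem_inf.mpr ⟨x.2, ?_⟩
    rw [mem_centralizer_iff] at hx ⊢
    intro y hy
    exact congrArg Subtype.val (hx ⟨y, hQX hy⟩ hy)
  · intro h
    refine ⟨(generalizedFittingSubgroup X).map X.subtype, Subgroup.map_subtype_le _, h.map _, ?_, ?_⟩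
    · haveI : (generalizedFittingSubgroup X).Normal := inferInstance
      intro x hx
      apply mem_normalizer_of_conj_mem
      rintro _ ⟨y, hy, rfl⟩
      exact ⟨⟨x, hx⟩ * y * ⟨x, hx⟩⁻¹, this.conj_mem y hy _, rfl⟩
    · intro x hx
      obtain ⟨hxX, hxC⟩ := Subgroup.mem_inf.mp hx
      refine ⟨⟨x, hxX⟩, ?_, rfl⟩
      apply centralizer_generalizedFitting_le X
      rw [mem_centralizer_iff] at hxC ⊢
      intro y hy
      exact Subtype.ext (hxC y ⟨y, hy, rfl⟩)

/-- the largest normal `p`-subgroup as witness -/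
theorem CP_core [Finite G] {p : ℕ} [hp : Fact p.Prime] {X : Subgroup G} (h : CP p X) :
    X ⊓ centralizer (((pCore p X).map X.subtype : Subgroup G) : Set G) ≤ (pCore p X).map X.subtype := by
  obtain ⟨Q, hQX, hQ, hN, hC⟩ := h
  have hQc : Q ≤ (pCore p X).map X.subtype := by
    haveI : (Q.subgroupOf X).Normal := (Subgroup.normal_subgroupOf_iff_le_normalizer hQX).mpr hN
    have h1 : Q.subgroupOf X ≤ pCore p X := le_pCore (hQ.comap_of_injective _ (Subgroup.subtype_injective _))
    intro x hx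
    exact ⟨⟨x, hQX hx⟩, h1 hx, rfl⟩
  refine le_trans ?_ hQc
  refine le_trans ?_ hC
  exact inf_le_inf_left _ (Subgroup.centralizer_le (SetLike.coe_subset_coe.mpr hQc))

theorem pow_mem_of_sup {X U : Subgroup G} {p : ℕ} (hU : IsPGroup p U) (hUX : U ≤ normalizer (X : Set G)) {y : G} (hy : y ∈ X ⊔ U) :
    ∃ k, y ^ p ^ k ∈ X := by
  obtain ⟨x, hx, u, hu, rfl⟩ := (L0.mem_sup_of_normalizes hUX).mp hy
  obtain ⟨k, hk⟩ := hU ⟨u, hu⟩
  have hk' : u ^ p ^ k = 1 := congrArg Subtype.val hk
  have h1 : ∀ n : ℕ, ∃ x' ∈ X, (x * u) ^ n = x' * u ^ n := by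
    intro n
    induction n with
    | zero => exact ⟨1, X.one_mem, by simp⟩
    | succ n ih =>
      obtain ⟨x', hx', he⟩ := ih
      refine ⟨x' * (u ^ n * x * (u ^ n)⁻¹), mul_mem hx' ((mem_normalizer_iff.mp (hUX (pow_mem hu n)) x).mp hx), ?_⟩
      rw [pow_succ, he, pow_succ]; group
  obtain ⟨x', hx', he⟩ := h1 (p ^ k)
  exact ⟨k, by rw [he, hk', mul_one]; exact hx'⟩

theorem CP_extend [Finite G] {p : ℕ} [hp : Fact p.Prime] {X U : Subgroup G} (h : CP p X) (hU : IsPGroup p U) (hUX : U ≤ normalizer (X : Set G)) :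
    CP p (X ⊔ U) := by
  have hC := CP_core h
  set Q := (pCore p X).map X.subtype with hQ
  have hQX : Q ≤ X := Subgroup.map_subtype_le _
  have hQp : IsPGroup p Q := (pCore_isPGroup p X).map _
  have hNQ : normalizer (X : Set G) ≤ normalizer (Q : Set G) := normalizer_le_normalizer_char inferInstance
  have hYN : X ⊔ U ≤ normalizer (Q : Set G) := sup_le (le_trans Subgroup.le_normalizer hNQ) (hUX.trans hNQ)
  set C := (X ⊔ U) ⊓ centralizer (Q : Set G) with hCdef
  have hCp : IsPGroup p C := by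
    rintro ⟨c, hc⟩
    obtain ⟨hc1, hc2⟩ := Subgroup.mem_inf.mp hc
    obtain ⟨k, hk⟩ := pow_mem_of_sup hU hUX hc1
    have h1 : c ^ p ^ k ∈ Q := hC (Subgroup.mem_inf.mpr ⟨hk, pow_mem hc2 _⟩)
    obtain ⟨j, hj⟩ := hQp ⟨_, h1⟩
    refine ⟨k + j, ?_⟩
    apply Subtype.ext
    have hj' : (c ^ p ^ k) ^ p ^ j = 1 := congrArg Subtype.val hj
    change c ^ p ^ (k + j) = 1
    rw [pow_add, pow_mul]; exact hj'
  have hCN : X ⊔ U ≤ normalizer (C : Set G) := by
    intro g hg
    apply mem_normalizer_of_conj_mem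
    intro x hx
    obtain ⟨hx1, hx2⟩ := Subgroup.mem_inf.mp hx
    refine Subgroup.mem_inf.mpr ⟨mul_mem (mul_mem hg hx1) (inv_mem hg), ?_⟩
    rw [mem_centralizer_iff] at hx2 ⊢
    intro q hq
    have h1 : g⁻¹ * q * g ∈ Q := by
      have := (mem_normalizer_iff.mp (inv_mem (hYN hg)) q).mp hq
      rwa [inv_inv] at this
    have h2 := hx2 _ h1
    calc q * (g * x * g⁻¹) = g * ((g⁻¹ * q * g) * x) * g⁻¹ := by group
      _ = g * x * g⁻¹ * q := by rw [h2]; group
  have hQN : Q ≤ normalizer (C : Set G) := (hQX.trans le_sup_left).trans hCN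
  refine ⟨C ⊔ Q, sup_le inf_le_left (hQX.trans le_sup_left), ?_, ?_, ?_⟩
  · exact IsPGroup.to_sup_of_normal_left' hCp hQp hQN
  · intro g hg
    apply mem_normalizer_of_conj_mem
    intro x hx
    obtain ⟨c, hc, q, hq, rfl⟩ := (L0.mem_sup_of_normalizes hQN).mp hx
    have e : g * (c * q) * g⁻¹ = (g * c * g⁻¹) * (g * q * g⁻¹) := by group
    rw [e]
    exact mul_mem (Subgroup.mem_sup_left ((mem_normalizer_iff.mp (hCN hg) c).mp hc)) (Subgroup.mem_sup_right ((mem_normalizer_iff.mp (hYN hg) q).mp hq))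
  · refine le_trans ?_ (le_sup_left : C ≤ C ⊔ Q)
    rw [hCdef]
    exact inf_le_inf_left _ (Subgroup.centralizer_le (SetLike.coe_subset_coe.mpr le_sup_right))

theorem CP_centralizer [Finite G] {p : ℕ} [hp : Fact p.Prime] {Y U : Subgroup G} (h : CP p Y) (hU : IsPGroup p U) (hUY : U ≤ Y) :
    CP p (Y ⊓ centralizer (U : Set G)) := by
  obtain ⟨Q, hQX, hQ, hN, hC⟩ := h
  rw [CP_iff]
  set N := Y ⊓ centralizer (U : Set G) with hNdef
  apply isPGroup_gf (Q := pCore p N) (pCore_isPGroup p N)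
  -- p'-elements of the centralizer are trivial
  set R : Subgroup N := Q.subgroupOf N with hR
  have hRn : R.Normal := by
    constructor
    intro x hx g
    rw [hR, mem_subgroupOf] at hx ⊢
    exact (mem_normalizer_iff.mp (hN (Subgroup.mem_inf.mp g.2).1) x).mp hx
  have hRc : R ≤ pCore p N := le_pCore (hQ.comap_of_injective _ (Subgroup.subtype_injective _))
  have key : ∀ x ∈ centralizer ((pCore p N : Subgroup N) : Set N), Nat.Coprime (orderOf x) p → x = 1 := by
    intro x hx hxo
    have hxY : (x : G) ∈ Y := (Subgroup.mem_inf.mp x.2).1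
    have hxU := (Subgroup.mem_inf.mp x.2).2
    have h1 := axb_lemma (p := p) (A := zpowers (x : G)) (B := U) (P := Q)
      (by rw [zpowers_le]; exact hN hxY) (hUY.trans hN) hQ hU (by rw [Nat.card_zpowers, Subgroup.orderOf_coe]; exact hxo)
      (by
        intro a ha b hb
        have h2 : zpowers (x : G) ≤ centralizer (U : Set G) := by rw [zpowers_le]; exact hxU
        exact (mem_centralizer_iff.mp (h2 ha) b hb).symm)
      (by
        intro q hq
        obtain ⟨hq1, hq2⟩ := Subgroup.mem_inf.mp hq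
        have hqN : q ∈ N := Subgroup.mem_inf.mpr ⟨hQX hq1, hq2⟩
        have h2 : (⟨q, hqN⟩ : N) ∈ pCore p N := hRc hq1
        have h3 := mem_centralizer_iff.mp hx _ h2
        have h4 : q * x = x * q := congrArg Subtype.val h3
        rw [mem_centralizer_iff]
        intro a ha
        obtain ⟨i, rfl⟩ := mem_zpowers_iff.mp ha
        have h5 : Commute (x : G) q := h4.symm
        exact (h5.zpow_left i).eq)
    have h2 : (x : G) ∈ Q := by
      apply hC
      refine Subgroup.mem_inf.mpr ⟨hxY, ?_⟩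
      rw [Subgroup.commutator_eq_bot_iff_le_centralizer] at h1
      rw [mem_centralizer_iff]
      intro q hq
      exact (mem_centralizer_iff.mp (h1 hq) x (mem_zpowers _)).symm
    obtain ⟨k, hk⟩ := (IsPGroup.iff_orderOf.mp hQ) ⟨_, h2⟩
    rw [← Subgroup.orderOf_coe] at hk
    have h3 : orderOf x = p ^ k := by rw [← Subgroup.orderOf_coe]; exact hk
    rw [h3] at hxo
    have h4 : k = 0 := by
      by_contra hk0
      exact hp.out.one_lt.ne' (Nat.Coprime.eq_one_of_dvd (hxo.symm) (dvd_pow_self p hk0))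
    rw [h4, pow_zero, orderOf_eq_one_iff] at h3
    exact h3
  have hCn : (centralizer ((pCore p N : Subgroup N) : Set N)).Normal := inferInstance
  apply le_pCore
  -- the centralizer is a `p`-group
  intro x
  obtain ⟨k, m, hm, hkm⟩ := Nat.exists_eq_pow_mul_and_not_dvd (orderOf_pos (x : N)).ne' p hp.out.ne_one
  have h1 := key _ (pow_mem x.2 (p ^ k)) (by
    rw [orderOf_pow' _ (pow_ne_zero k hp.out.ne_zero), hkm, Nat.gcd_eq_right (Dvd.intro _ rfl), Nat.mul_div_cancel_left _ (pow_pos hp.out.pos k)]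
    exact (hp.out.coprime_iff_not_dvd.mpr hm).symm)
  exact ⟨k, Subtype.ext h1⟩

end Cfsg.Agent.H1
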