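import Mathlib
import Cfsg.Agent.H1.Basic
import Cfsg.Agent.H1.Class2

open scoped commutatorElement Pointwise

namespace Cfsg.Agent.H1

open Cfsg Subgroup

/-- `[x^k,y] = c^k u^{C(k,2)}` where `c=[x,y]`, `u=[x,c]` central. -/
theorem comm_pow_class_three {G : Type*} [Group G] {x y : G} (hu : ∀ g, Commute ⁅x, ⁅x, y⁆⁆ g) (k : ℕ) :
    ⁅x ^ k, y⁆ = ⁅x, y⁆ ^ k * ⁅x, ⁅x, y⁆⁆ ^ (k.choose 2) := by
  induction k with
  | zero => simp
  | succ k ih =>
    have h1 : ⁅x ^ (k + 1), y⁆ = x * ⁅x ^ k, y⁆ * x⁻¹ * ⁅x, y⁆ := by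
      rw [pow_succ']; simp only [commutatorElement_def]; group
    have hc : x * ⁅x, y⁆ * x⁻¹ = ⁅x, ⁅x, y⁆⁆ * ⁅x, y⁆ := by
      rw [commutatorElement_def x ⁅x, y⁆]; group
    set c := ⁅x, y⁆ with hcd
    set u := ⁅x, c⁆ with hud
    have h2 : x * (c ^ k * u ^ (k.choose 2)) * x⁻¹ = (u * c) ^ k * u ^ (k.choose 2) := by
      have e1 : x * u ^ (k.choose 2) * x⁻¹ = u ^ (k.choose 2) := by
        rw [← ((hu x).pow_left _).eq]; group
      have e2 : x * c ^ k * x⁻¹ = (u * c) ^ k := by rw [← hc, conj_pow]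
      calc x * (c ^ k * u ^ (k.choose 2)) * x⁻¹ = (x * c ^ k * x⁻¹) * (x * u ^ (k.choose 2) * x⁻¹) := by group
        _ = _ := by rw [e1, e2]
    rw [h1, ih, h2, (hu c).mul_pow, Nat.choose_succ_succ' k 1, Nat.choose_one_right, pow_add, pow_succ]
    have h3 : ∀ (a b : ℕ), u ^ a * c ^ b = c ^ b * u ^ a := fun a b => ((hu c).pow_pow a b).eq
    have h4 : ∀ a : ℕ, u ^ a * c = c * u ^ a := fun a => ((hu c).pow_left a).eq
    calc u ^ k * c ^ k * u ^ (k.choose 2) * c = (u ^ k * c ^ k) * (u ^ (k.choose 2) * c) := by group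
      _ = (c ^ k * u ^ k) * (c * u ^ (k.choose 2)) := by rw [h3, h4]
      _ = c ^ k * (u ^ k * c) * u ^ (k.choose 2) := by group
      _ = c ^ k * (c * u ^ k) * u ^ (k.choose 2) := by rw [h4]
      _ = _ := by group

/-- The power formula in class three. -/
theorem mul_pow_class_three {G : Type*} [Group G] {x y : G} (hu : ∀ g, Commute ⁅x, ⁅x, y⁆⁆ g)
    (hv : ∀ g, Commute ⁅y, ⁅x, y⁆⁆ g) (n : ℕ) :
    (x * y) ^ n = ⁅x, y⁆ ^ ((n + 1).choose 2) * ⁅x, ⁅x, y⁆⁆ ^ ((n + 1).choose 3) *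
      ⁅y, ⁅x, y⁆⁆ ^ (2 * (n + 1).choose 3) * (y ^ n * x ^ n) := by
  induction n with
  | zero => simp [Nat.choose]
  | succ n ih =>
    have hk := comm_pow_class_three hu (n + 1)
    have hc : ∀ m : ℕ, y ^ m * ⁅x, y⁆ * (y ^ m)⁻¹ = ⁅y, ⁅x, y⁆⁆ ^ m * ⁅x, y⁆ := by
      intro m
      induction m with
      | zero => simp
      | succ m ihm =>
        have e1 : y * ⁅x, y⁆ * y⁻¹ = ⁅y, ⁅x, y⁆⁆ * ⁅x, y⁆ := by
          rw [commutatorElement_def y ⁅x, y⁆]; group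
        calc y ^ (m + 1) * ⁅x, y⁆ * (y ^ (m + 1))⁻¹ = y * (y ^ m * ⁅x, y⁆ * (y ^ m)⁻¹) * y⁻¹ := by
              rw [pow_succ']; group
          _ = y * (⁅y, ⁅x, y⁆⁆ ^ m * ⁅x, y⁆) * y⁻¹ := by rw [ihm]
          _ = (y * ⁅y, ⁅x, y⁆⁆ ^ m) * ⁅x, y⁆ * y⁻¹ := by group
          _ = (⁅y, ⁅x, y⁆⁆ ^ m * y) * ⁅x, y⁆ * y⁻¹ := by rw [((hv y).pow_left m).eq]
          _ = ⁅y, ⁅x, y⁆⁆ ^ m * (y * ⁅x, y⁆ * y⁻¹) := by group
          _ = ⁅y, ⁅x, y⁆⁆ ^ m * (⁅y, ⁅x, y⁆⁆ * ⁅x, y⁆) := by rw [e1]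
          _ = _ := by rw [pow_succ]; group
    set c := ⁅x, y⁆ with hcd
    set u := ⁅x, c⁆ with hud
    set v := ⁅y, c⁆ with hvd
    have h1 : x ^ (n + 1) * y = ⁅x ^ (n + 1), y⁆ * y * x ^ (n + 1) := by
      rw [commutatorElement_def]; group
    have h2 : y ^ n * ⁅x ^ (n + 1), y⁆ = (v ^ n * c) ^ (n + 1) * u ^ ((n + 1).choose 2) * y ^ n := by
      rw [hk]
      calc y ^ n * (c ^ (n + 1) * u ^ ((n + 1).choose 2))
          = (y ^ n * c ^ (n + 1) * (y ^ n)⁻¹) * (y ^ n * u ^ ((n + 1).choose 2)) := by group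
        _ = (y ^ n * c * (y ^ n)⁻¹) ^ (n + 1) * (y ^ n * u ^ ((n + 1).choose 2)) := by rw [conj_pow]
        _ = (v ^ n * c) ^ (n + 1) * (u ^ ((n + 1).choose 2) * y ^ n) := by
              rw [hc n, ((hu (y ^ n)).pow_left _).eq]
        _ = _ := by group
    have h3 : (v ^ n * c) ^ (n + 1) = v ^ (n * (n + 1)) * c ^ (n + 1) := by
      rw [((hv c).pow_left n).mul_pow, ← pow_mul]
    set A := (n + 1).choose 2 with hA
    set B := (n + 1).choose 3 with hB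
    have hA' : (n + 1 + 1).choose 2 = A + (n + 1) := by
      rw [Nat.choose_succ_succ' (n + 1) 1, Nat.choose_one_right]; ring
    have hB' : (n + 1 + 1).choose 3 = B + A := by
      rw [Nat.choose_succ_succ' (n + 1) 2]; ring
    have hAn : 2 * A = n * (n + 1) := by
      rw [hA, Nat.choose_two_right]
      have : 2 ∣ (n + 1) * (n + 1 - 1) := by
        simpa [mul_comm] using (Nat.even_mul_succ_self n).two_dvd
      rw [Nat.mul_div_cancel' this]; simp [mul_comm]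
    have cu : ∀ (i : ℕ) (g : G), u ^ i * g = g * u ^ i := fun i g => ((hu g).pow_left i).eq
    have cv : ∀ (i : ℕ) (g : G), v ^ i * g = g * v ^ i := fun i g => ((hv g).pow_left i).eq
    calc (x * y) ^ (n + 1) = (x * y) ^ n * (x * y) := pow_succ _ _
      _ = c ^ A * u ^ B * v ^ (2 * B) * (y ^ n * x ^ n) * (x * y) := by rw [ih]
      _ = c ^ A * u ^ B * v ^ (2 * B) * (y ^ n * (x ^ (n + 1) * y)) := by rw [pow_succ x n]; group
      _ = c ^ A * u ^ B * v ^ (2 * B) * (y ^ n * (⁅x ^ (n + 1), y⁆ * y * x ^ (n + 1))) := by rw [h1]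
      _ = c ^ A * u ^ B * v ^ (2 * B) * ((y ^ n * ⁅x ^ (n + 1), y⁆) * (y * x ^ (n + 1))) := by group
      _ = c ^ A * u ^ B * v ^ (2 * B) * ((v ^ (n * (n + 1)) * c ^ (n + 1) * u ^ A * y ^ n) * (y * x ^ (n + 1))) := by
            rw [h2, h3]
      _ = c ^ A * (u ^ B * (v ^ (2 * B) * v ^ (n * (n + 1)) * c ^ (n + 1))) * u ^ A * (y ^ n * y * x ^ (n + 1)) := by
            group
      _ = c ^ A * ((v ^ (2 * B) * v ^ (n * (n + 1)) * c ^ (n + 1)) * u ^ B) * u ^ A * (y ^ n * y * x ^ (n + 1)) := by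
            rw [cu]
      _ = c ^ A * (v ^ (2 * B + n * (n + 1)) * c ^ (n + 1)) * u ^ (B + A) * (y ^ n * y * x ^ (n + 1)) := by
            rw [← pow_add v, pow_add u]; group
      _ = c ^ A * (c ^ (n + 1) * v ^ (2 * B + n * (n + 1))) * u ^ (B + A) * (y ^ n * y * x ^ (n + 1)) := by
            rw [cv]
      _ = c ^ A * c ^ (n + 1) * (v ^ (2 * B + n * (n + 1)) * u ^ (B + A)) * (y ^ n * y * x ^ (n + 1)) := by group
      _ = c ^ A * c ^ (n + 1) * (u ^ (B + A) * v ^ (2 * B + n * (n + 1))) * (y ^ n * y * x ^ (n + 1)) := by rw [cv]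
      _ = c ^ ((n + 1 + 1).choose 2) * u ^ ((n + 1 + 1).choose 3) * v ^ (2 * (n + 1 + 1).choose 3) *
            (y ^ (n + 1) * x ^ (n + 1)) := by
            rw [hA', hB', ← hAn, pow_add c, ← pow_succ y]
            have : 2 * B + 2 * A = 2 * (B + A) := by ring
            rw [this]; group

theorem dvd_choose_succ {p k : ℕ} (hp : p.Prime) (hk : 2 ≤ k) (hkp : k < p) : p ∣ (p + 1).choose k := by
  obtain ⟨j, rfl⟩ : ∃ j, k = j + 1 := ⟨k - 1, by omega⟩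
  rw [Nat.choose_succ_succ]
  exact dvd_add (hp.dvd_choose_self (by omega) (by omega)) (hp.dvd_choose_self (by omega) hkp)

/-- class three, `p > 3`, commutators of exponent `p`: the `p`-th power map is multiplicative. -/
theorem mul_pow_prime_class_three {G : Type*} [Group G] {p : ℕ} (hp : p.Prime) (h3 : 3 < p) {x y : G}
    (hu : ∀ g, Commute ⁅x, ⁅x, y⁆⁆ g) (hv : ∀ g, Commute ⁅y, ⁅x, y⁆⁆ g)
    (hcp : ⁅x, y⁆ ^ p = 1) (hup : ⁅x, ⁅x, y⁆⁆ ^ p = 1) (hvp : ⁅y, ⁅x, y⁆⁆ ^ p = 1) :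
    (x * y) ^ p = x ^ p * y ^ p := by
  have h1 := mul_pow_class_three hu hv p
  obtain ⟨a, ha⟩ := dvd_choose_succ hp (le_refl 2) (by omega : 2 < p)
  obtain ⟨b, hb⟩ := dvd_choose_succ hp (by norm_num : 2 ≤ 3) h3
  have hb2 : 2 * (p + 1).choose 3 = p * (2 * b) := by rw [hb]; ring
  rw [hb2, ha, hb, pow_mul, hcp, pow_mul, hup, pow_mul, hvp, one_pow, one_pow, one_pow, one_mul, one_mul, one_mul] at h1
  rw [h1]
  have h2 := comm_pow_class_three hu p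
  obtain ⟨c, hc⟩ := hp.dvd_choose_self (by norm_num : 2 ≠ 0) (by omega : 2 < p)
  rw [hcp, hc, pow_mul, hup, one_pow, one_mul] at h2
  have h4 : Commute (x ^ p) y := commutatorElement_eq_one_iff_commute.mp h2
  exact (h4.pow_right p).eq.symm

/-- elementwise class ≤ 3 -/
theorem pow_prime_closure_class_three (n : ℕ) : ∀ (R : Type*) [Group R] [Finite R] {p : ℕ} [Fact p.Prime] (_ : 3 < p)
    (_ : IsPGroup p R) (_ : ∀ a b c d : R, ⁅⁅⁅a, b⁆, c⁆, d⁆ = 1), Nat.card R = n →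
    ∀ x y : R, x ^ p = 1 → y ^ p = 1 → (x * y) ^ p = 1 := by
  induction n using Nat.strong_induction_on with
  | _ n ih =>
  intro R _ _ p hpf hp hR hcl hn x y hx hy
  have hpp : p.Prime := hpf.out
  have sub : ∀ z w : R, z ^ p = 1 → w ^ p = 1 → (∃ M : Subgroup R, M ≠ ⊤ ∧ z ∈ M ∧ w ∈ M) → (z * w) ^ p = 1 := by
    rintro z w hz hw ⟨M, hM, hzM, hwM⟩
    have hlt : Nat.card M < n := by
      rw [← hn]
      exact lt_of_le_of_ne (Subgroup.card_le_card_group M) (fun h' => hM (Subgroup.eq_top_of_card_eq M h'))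
    have h1 := ih _ hlt M hp (hR.to_subgroup M) (by
      intro a b c d
      exact Subtype.ext (hcl a b c d)) rfl ⟨z, hzM⟩ ⟨w, hwM⟩ (Subtype.ext (by simpa using hz)) (Subtype.ext (by simpa using hw))
    simpa using congrArg Subtype.val h1
  -- coatoms
  have hcomm : (∀ z : R, z ^ p = 1 → zpowers z = ⊤ → (x * y) ^ p = 1) := by
    intro z hz htop
    have hall : ∀ a b : R, Commute a b := by
      intro a b
      obtain ⟨i, rfl⟩ := mem_zpowers_iff.mp (by rw [htop]; trivial : a ∈ zpowers z)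
      obtain ⟨j, rfl⟩ := mem_zpowers_iff.mp (by rw [htop]; trivial : b ∈ zpowers z)
      exact (Commute.refl z).zpow_zpow i j
    rw [(hall x y).mul_pow, hx, hy, one_mul]
  have hco : ∀ z : R, zpowers z ≠ ⊤ → ∃ M : Subgroup R, M.Normal ∧ M ≠ ⊤ ∧ z ∈ M := by
    intro z hz
    haveI := hR.isNilpotent
    obtain ⟨M, hM, hzM⟩ := (eq_top_or_exists_le_coatom (zpowers z)).resolve_left hz
    exact ⟨M, normal_of_isCoatom_of_nilpotent hM, hM.1, hzM (mem_zpowers z)⟩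
  by_cases htx : zpowers x = ⊤
  · exact hcomm x hx htx
  by_cases hty : zpowers y = ⊤
  · exact hcomm y hy hty
  obtain ⟨M, hMn, hM, hxM⟩ := hco x htx
  obtain ⟨N, hNn, hN, hyN⟩ := hco y hty
  have hinv : ∀ g w : R, w ^ p = 1 → (g * w⁻¹ * g⁻¹) ^ p = 1 := by
    intro g w hw
    rw [conj_pow, inv_pow, hw]; group
  have hinv' : ∀ g w : R, w ^ p = 1 → (g * w * g⁻¹) ^ p = 1 := by
    intro g w hw
    rw [conj_pow, hw]; group
  have hcM : ⁅x, y⁆ ∈ M := by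
    have : ⁅x, y⁆ = x * (y * x⁻¹ * y⁻¹) := by rw [commutatorElement_def]; group
    rw [this]; exact M.mul_mem hxM (hMn.conj_mem _ (M.inv_mem hxM) y)
  have hcN : ⁅x, y⁆ ∈ N := by
    rw [commutatorElement_def]; exact N.mul_mem (hNn.conj_mem _ hyN x) (N.inv_mem hyN)
  have hcp : ⁅x, y⁆ ^ p = 1 := by
    have : ⁅x, y⁆ = x * (y * x⁻¹ * y⁻¹) := by rw [commutatorElement_def]; group
    rw [this]
    exact sub _ _ hx (hinv y x hx) ⟨M, hM, hxM, hMn.conj_mem _ (M.inv_mem hxM) y⟩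
  have hup : ⁅x, ⁅x, y⁆⁆ ^ p = 1 := by
    have : ⁅x, ⁅x, y⁆⁆ = x * (⁅x, y⁆ * x⁻¹ * ⁅x, y⁆⁻¹) := by rw [commutatorElement_def x ⁅x, y⁆]; group
    rw [this]
    exact sub _ _ hx (hinv _ x hx) ⟨M, hM, hxM, hMn.conj_mem _ (M.inv_mem hxM) _⟩
  have hvp : ⁅y, ⁅x, y⁆⁆ ^ p = 1 := by
    have : ⁅y, ⁅x, y⁆⁆ = y * (⁅x, y⁆ * y⁻¹ * ⁅x, y⁆⁻¹) := by rw [commutatorElement_def y ⁅x, y⁆]; group
    rw [this]
    exact sub _ _ hy (hinv _ y hy) ⟨N, hN, hyN, hNn.conj_mem _ (N.inv_mem hyN) _⟩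
  have hcen : ∀ z g : R, Commute ⁅z, ⁅x, y⁆⁆ g := by
    intro z g
    have h1 := hcl x y z g
    have h2 : Commute ⁅⁅x, y⁆, z⁆ g := commutatorElement_eq_one_iff_commute.mp h1
    rw [← commutatorElement_inv]
    exact h2.inv_left
  rw [mul_pow_prime_class_three hpp hp (hcen x) (hcen y) hcp hup hvp, hx, hy, one_mul]

theorem pow_eq_one_of_mem_closure {R : Type*} [Group R] {p : ℕ} (h : ∀ x y : R, x ^ p = 1 → y ^ p = 1 → (x * y) ^ p = 1)
    {g : R} (hg : g ∈ closure {x : R | x ^ p = 1}) : g ^ p = 1 := by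
  induction hg using closure_induction with
  | mem x hx => exact hx
  | one => exact one_pow p
  | mul x y _ _ hx hy => exact h x y hx hy
  | inv x _ hx => rw [inv_pow, hx, inv_one]

end Cfsg.Agent.H1
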