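import Mathlib
import Cfsg.Agent.L0.Core
import Cfsg.Agent.H1.Basic
import Cfsg.Agent.H1.Transfer

set_option autoImplicit false

namespace Cfsg.Agent.H1

open Subgroup commutatorElement Pointwise
open scoped IsMulCommutative

variable {G : Type*} [Group G]

/-- Coprime action on an abelian group: `C_V(A) ∩ [V,A] = 1` and `C_V(A)[V,A] = V`.
It suffices that `|A : C_A(V)|` is coprime to `|V|`. -/
theorem coprime_abelian_decomp [Finite G] (A V : Subgroup G) [IsMulCommutative V]
    (hAV : A ≤ Subgroup.normalizer (V : Set G))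
    (hcop : ((Subgroup.centralizer (V : Set G)).relIndex A).Coprime (Nat.card V)) :
    (V ⊓ Subgroup.centralizer (A : Set G)) ⊓ ⁅V, A⁆ = ⊥ ∧ (V ⊓ Subgroup.centralizer (A : Set G)) ⊔ ⁅V, A⁆ = V := by
  classical
  let φ : A →* MulAut V := V.normalizerMonoidHom.comp (Subgroup.inclusion hAV)
  have hφ : ∀ (a : A) (v : V), ((φ a v : V) : G) = a * v * (a : G)⁻¹ := fun a v => rfl
  let B : Subgroup (MulAut V) := φ.range
  haveI : Fintype B := Fintype.ofFinite B
  have hBcard : Nat.card B = (Subgroup.centralizer (V : Set G)).relIndex A := by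
    have h1 : φ.ker = (Subgroup.centralizer (V : Set G)).subgroupOf A := by
      ext a
      rw [MonoidHom.mem_ker, Subgroup.mem_subgroupOf, Subgroup.mem_centralizer_iff]
      constructor
      · intro h v hv
        have h2 : φ a ⟨v, hv⟩ = ⟨v, hv⟩ := by rw [h]; rfl
        have h3 : (a : G) * v * (a : G)⁻¹ = v := congrArg Subtype.val h2
        rw [mul_inv_eq_iff_eq_mul] at h3
        exact h3.symm
      · intro h
        ext v
        rw [hφ, ← h v v.2]; simp
    rw [Subgroup.relIndex, ← h1, Subgroup.index_ker]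
  rw [← hBcard] at hcop
  -- the averaging map
  let θ : V →* V := ∏ b : B, ((b : MulAut V).toMonoidHom : V →* V)
  have hθ : ∀ v : V, θ v = ∏ b : B, (b : MulAut V) v := by
    intro v
    rw [MonoidHom.finsetProd_apply]
    rfl
  have hVA : ⁅V, A⁆ ≤ V := Subgroup.le_normalizer_iff_commutator_le_left.mp hAV
  -- θ v is fixed by B
  have hfix : ∀ (b : B) (v : V), (b : MulAut V) (θ v) = θ v := by
    intro b v
    rw [hθ, map_prod]
    exact Fintype.prod_equiv (Equiv.mulLeft b) _ _ (fun x => by simp)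
  have hθinv : ∀ (b : B) (v : V), θ ((b : MulAut V) v) = θ v := by
    intro b v
    rw [hθ, hθ]
    exact Fintype.prod_equiv (Equiv.mulRight b) _ _ (fun x => by simp)
  have hcent : ∀ v : V, (v : G) ∈ Subgroup.centralizer (A : Set G) ↔ ∀ b : B, (b : MulAut V) v = v := by
    intro v
    rw [Subgroup.mem_centralizer_iff]
    constructor
    · rintro h ⟨_, a, rfl⟩
      apply Subtype.ext
      rw [hφ, h a a.2, mul_inv_cancel_right]
    · intro h a ha
      have h1 := congrArg Subtype.val (h ⟨φ ⟨a, ha⟩, ⟨a, ha⟩, rfl⟩)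
      have h2 : a * v * a⁻¹ = v := h1
      rw [mul_inv_eq_iff_eq_mul] at h2
      exact h2
  have hθC : ∀ v : V, ((θ v : V) : G) ∈ Subgroup.centralizer (A : Set G) := fun v =>
    (hcent _).mpr (fun b => hfix b v)
  have hθfix : ∀ v : V, (v : G) ∈ Subgroup.centralizer (A : Set G) → θ v = v ^ Nat.card B := by
    intro v hv
    rw [hθ, Finset.prod_congr rfl (fun b _ => (hcent v).mp hv b)]
    simp [Nat.card_eq_fintype_card]
  -- θ kills the commutator
  have hθcomm : ∀ v : V, (v : G) ∈ ⁅V, A⁆ → θ v = 1 := by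
    have : ⁅V, A⁆ ≤ θ.ker.map V.subtype := by
      rw [Subgroup.commutator_le]
      intro v hv a ha
      refine ⟨⟨v, hv⟩ * (φ ⟨a, ha⟩ ⟨v, hv⟩)⁻¹, ?_, ?_⟩
      · show θ _ = 1
        rw [map_mul, map_inv]
        have := hθinv ⟨φ ⟨a, ha⟩, ⟨a, ha⟩, rfl⟩ ⟨v, hv⟩
        rw [this, mul_inv_cancel]
      · show v * (a * v * a⁻¹)⁻¹ = ⁅v, a⁆
        rw [commutatorElement_def]; group
    intro v hv
    obtain ⟨w, hw, hwv⟩ := this hv
    have : w = v := Subtype.ext hwv
    rw [← this]; exact hw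
  have hmod : ∀ v : V, ((θ v)⁻¹ * v ^ Nat.card B : V).1 ∈ ⁅V, A⁆ := by
    intro v
    have h1 : (θ v)⁻¹ * v ^ Nat.card B = ∏ b : B, (((b : MulAut V) v)⁻¹ * v) := by
      rw [hθ, Finset.prod_mul_distrib, Finset.prod_inv_distrib]
      simp [Nat.card_eq_fintype_card]
    rw [h1]
    have h2 : ∀ b : B, ((((b : MulAut V) v)⁻¹ * v : V)) ∈ (⁅V, A⁆).subgroupOf V := by
      rintro ⟨_, a, rfl⟩
      rw [Subgroup.mem_subgroupOf]
      have h3 : (((φ a v)⁻¹ * v : V) : G) = ⁅(v : G), (a : G)⁆ := by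
        have h4 : (((φ a v)⁻¹ * v : V) : G) = ((v * (φ a v)⁻¹ : V) : G) := by rw [mul_comm]
        rw [h4]
        show (v : G) * ((a : G) * v * (a : G)⁻¹)⁻¹ = _
        rw [commutatorElement_def]; group
      show (((φ a v)⁻¹ * v : V) : G) ∈ _
      rw [h3]
      exact Subgroup.commutator_mem_commutator v.2 a.2
    exact Subgroup.prod_mem ((⁅V, A⁆).subgroupOf V) (fun b _ => h2 b)
  have hpow : Function.Bijective (fun v : V => v ^ Nat.card B) := (powCoprime hcop.symm).bijective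
  constructor
  · rw [eq_bot_iff]
    rintro x ⟨⟨hxV, hxC⟩, hxA⟩
    have h1 := hθfix ⟨x, hxV⟩ hxC
    rw [hθcomm ⟨x, hxV⟩ hxA] at h1
    have h2 : (⟨x, hxV⟩ : V) = 1 := hpow.1 (by simpa using h1.symm)
    rw [Subgroup.mem_bot]; exact congrArg Subtype.val h2
  · apply le_antisymm
    · exact sup_le inf_le_left hVA
    · intro v hv
      obtain ⟨w, hw⟩ := hpow.2 ⟨v, hv⟩
      have h1 : v = ((θ w : V) : G) * ((θ w)⁻¹ * w ^ Nat.card B : V).1 := by
        have : (⟨v, hv⟩ : V) = θ w * ((θ w)⁻¹ * w ^ Nat.card B) := by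
          rw [mul_inv_cancel_left]; exact hw.symm
        exact congrArg Subtype.val this
      rw [h1]
      exact Subgroup.mul_mem _ (Subgroup.mem_sup_left ⟨(θ w).2, hθC w⟩) (Subgroup.mem_sup_right (hmod w))

theorem coprime_abelian_decomp' [Finite G] (A V : Subgroup G) [IsMulCommutative V]
    (hAV : A ≤ Subgroup.normalizer (V : Set G)) (hcop : (Nat.card A).Coprime (Nat.card V)) :
    (V ⊓ Subgroup.centralizer (A : Set G)) ⊓ ⁅V, A⁆ = ⊥ ∧ (V ⊓ Subgroup.centralizer (A : Set G)) ⊔ ⁅V, A⁆ = V :=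
  coprime_abelian_decomp A V hAV (Nat.Coprime.coprime_dvd_left (Subgroup.relIndex_dvd_card _ _) hcop)

end Cfsg.Agent.H1
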