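import Mathlib
import Cfsg.Prelude.Def_PLocal

set_option autoImplicit false

namespace Cfsg.Agent.H1.QS4

def P : Fin 4 → ZMod 2 × ZMod 2 := ![(0, 0), (1, 0), (0, 1), (1, 1)]

def mat (σ : Equiv.Perm (Fin 4)) : Matrix (Fin 3) (Fin 3) (ZMod 2) :=
  !![(P (σ 1)).1 - (P (σ 0)).1, (P (σ 2)).1 - (P (σ 0)).1, (P (σ 0)).1;
     (P (σ 1)).2 - (P (σ 0)).2, (P (σ 2)).2 - (P (σ 0)).2, (P (σ 0)).2;
     0, 0, 1]

theorem mdet (σ : Equiv.Perm (Fin 4)) : (mat σ).det = 1 := by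
  rw [Matrix.det_fin_three]
  revert σ
  decide +kernel

theorem mmul : ∀ σ τ : Equiv.Perm (Fin 4), mat (σ * τ) = mat σ * mat τ := by
  decide +kernel

theorem mone : mat 1 = 1 := by decide +kernel

theorem minj : ∀ σ : Equiv.Perm (Fin 4), mat σ = 1 → σ = 1 := by decide +kernel

theorem msurj : ∀ a b c d e f : ZMod 2, a * e - b * d = 1 → ∃ σ : Equiv.Perm (Fin 4), mat σ = !![a, b, c; d, e, f; 0, 0, 1] := by
  decide +kernel

def hom : Equiv.Perm (Fin 4) →* Matrix.SpecialLinearGroup (Fin 3) (ZMod 2) where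
  toFun σ := ⟨mat σ, mdet σ⟩
  map_one' := Subtype.ext mone
  map_mul' σ τ := Subtype.ext (mmul σ τ)

theorem hom_inj : Function.Injective hom := by
  rw [injective_iff_map_eq_one]
  intro σ h
  exact minj σ (congrArg Subtype.val h)

theorem hom_range : hom.range = Cfsg.qd 2 := by
  apply le_antisymm
  · rintro _ ⟨σ, rfl⟩
    exact Subgroup.subset_closure ⟨rfl, rfl, rfl⟩
  · rw [Cfsg.qd, Subgroup.closure_le]
    rintro M ⟨h1, h2, h3⟩
    have hd := M.2
    rw [Matrix.det_fin_three] at hd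
    rw [h1, h2, h3] at hd
    obtain ⟨σ, hσ⟩ := msurj (M.1 0 0) (M.1 0 1) (M.1 0 2) (M.1 1 0) (M.1 1 1) (M.1 1 2) (by linear_combination hd)
    refine ⟨σ, Subtype.ext ?_⟩
    change mat σ = M.1
    rw [hσ]
    ext i j
    fin_cases i <;> fin_cases j <;> first | rfl | exact h1.symm | exact h2.symm | exact h3.symm

theorem s2761_aux : Nonempty (↥(Cfsg.qd 2) ≃* Equiv.Perm (Fin 4)) :=
  ⟨((MonoidHom.ofInjective hom_inj).trans (MulEquiv.subgroupCongr hom_range)).symm⟩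

end Cfsg.Agent.H1.QS4
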