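import Mathlib
import Cfsg.Agent.H1.QS4
import Cfsg.Agent.S0849
import Cfsg.Agent.S0111

set_option autoImplicit false
set_option linter.style.haveILetI false
set_option linter.unusedVariables false
set_option linter.unusedSectionVars false
set_option linter.unusedSimpArgs false

/-! Perfect groups with an involution centralizer dihedral of order eight. -/

namespace Cfsg.Agent.H1

open Cfsg Subgroup Cfsg.Agent.H5
open scoped commutatorElement ComplexConjugate

universe u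

section
variable {G : Type u} [Group G]

theorem pair_sum [Fintype G] [DecidableRel (IsConj : G → G → Prop)] (t : G) (f : G → ℂ) :
    ∑ x : G, ∑ y : G, f ((x * t * x⁻¹) * (y * t * y⁻¹)) =
      ((Nat.card (centralizer ({t} : Set G)) : ℂ)) ^ 2 * ∑ᶠ p ∈ {p : G × G | IsConj t p.1 ∧ IsConj t p.2}, f (p.1 * p.2) := by
  have hLs : {p : G × G | IsConj t p.1 ∧ IsConj t p.2} =
      (((Finset.univ.filter (fun x => IsConj t x)) ×ˢ (Finset.univ.filter (fun x => IsConj t x)) : Finset (G × G)) : Set (G × G)) := by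
    ext p; simp
  rw [hLs, finsum_mem_coe_finset, Finset.sum_product]
  have h1 := sum_conj_eq (A := ℂ) t (fun a => ∑ y : G, f (a * (y * t * y⁻¹)))
  rw [h1, nsmul_eq_mul, pow_two, mul_assoc, Finset.mul_sum (a := ((Nat.card (centralizer ({t} : Set G)) : ℂ)))
    (f := fun x => ∑ y ∈ Finset.univ.filter (fun x => IsConj t x), f (x * y))]
  congr 1
  refine Finset.sum_congr rfl fun a _ => ?_
  rw [sum_conj_eq (A := ℂ) t (fun b => f (a * b)), nsmul_eq_mul]

theorem pair_sum_irr [Fintype G] (t : G) (χ : IrrCharacter G) :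
    ∑ x : G, ∑ y : G, (χ : G → ℂ) ((x * t * x⁻¹) * (y * t * y⁻¹)) =
      (Nat.card G : ℂ) ^ 2 * ((χ : G → ℂ) t) ^ 2 / (χ : G → ℂ) 1 := by
  rw [Finset.sum_comm]
  have h1 : ∀ y : G, ∑ x : G, (χ : G → ℂ) ((x * t * x⁻¹) * (y * t * y⁻¹)) = Nat.card G * (χ : G → ℂ) t * (χ : G → ℂ) t / (χ : G → ℂ) 1 := by
    intro y
    rw [irr_sum_conj_mul χ.2]
    have : (χ : G → ℂ) (y * t * y⁻¹) = (χ : G → ℂ) t := IsCharacter.classFun (H4.IsIrr.isCharacter χ.2) t y
    rw [this]
  rw [Finset.sum_congr rfl fun y _ => h1 y, Finset.sum_const, Finset.card_univ, nsmul_eq_mul, Nat.card_eq_fintype_card]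
  ring

end

section dih
open DihedralGroup

theorem d4_center : ∀ z : DihedralGroup 4, (∀ w, z * w = w * z) → z ≠ 1 → z = r 2 := by decide

theorem d4_inv : ∀ i j : ZMod 4, (sr i)⁻¹ * r j * sr i = (r j)⁻¹ := by decide

theorem d4_cases : ∀ z : DihedralGroup 4, (∃ i, z = r i) ∨ ∃ i, z = sr i := by
  intro z
  rcases z with i | i
  · exact Or.inl ⟨i, rfl⟩
  · exact Or.inr ⟨i, rfl⟩

theorem d4_a : ∀ i j : ZMod 4, (r i * sr 0 : DihedralGroup 4) ≠ r j := by decide
theorem d4_b : ∀ i : ZMod 4, (sr i * sr 0 : DihedralGroup 4) = r (0 - i) := by decide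
theorem d4_c : ∀ i j : ZMod 4, (sr i : DihedralGroup 4) ≠ r j := by decide
theorem z4_cases : ∀ i : ZMod 4, i = 0 ∨ i = 1 ∨ i = 2 ∨ i = 3 := by decide

def d4f (z : DihedralGroup 4) : ℕ := if z = r 1 then 2 else if z = r 3 then 2 else if z = r 2 then 4 else 0

theorem d4_d : ∀ i : ZMod 4, d4f (sr i) = 0 := by decide

set_option maxRecDepth 100000 in
theorem d4_count : ∑ p ∈ Finset.univ.filter (fun p : DihedralGroup 4 × DihedralGroup 4 => (p.1 ≠ 1 ∧ p.1 * p.1 = 1) ∧ (p.2 ≠ 1 ∧ p.2 * p.2 = 1)),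
    d4f (p.1 * p.2) = 32 := by
  decide

end dih

end Cfsg.Agent.H1
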