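import Mathlib
import Cfsg.Agent.H1.D8

set_option autoImplicit false
set_option linter.style.haveILetI false
set_option linter.unusedVariables false
set_option linter.unusedSectionVars false
set_option linter.unusedSimpArgs false

/-! Perfect groups with an involution centralizer dihedral of order eight. -/

namespace Cfsg.Agent.H1

open Cfsg Subgroup Cfsg.Agent.H5 DihedralGroup
open scoped commutatorElement ComplexConjugate

universe u

section
variable {G : Type u} [Group G]

/-- data in the centralizer -/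
theorem d8_setup {t : G} (ht : orderOf t = 2) {H : Subgroup G} (hH : H = centralizer ({t} : Set G)) (e : H ≃* DihedralGroup 4) :
    ∃ u : G, ∃ hu : u ∈ H, e ⟨u, hu⟩ = r 1 ∧ orderOf u = 4 ∧ u * u = t ∧ (∀ htH : t ∈ H, e ⟨t, htH⟩ = r 2) ∧
      (∀ h (hh : h ∈ H), h ∈ zpowers u ↔ ∃ i, e ⟨h, hh⟩ = r i) := by
  have htH : t ∈ H := by rw [hH]; exact mem_centralizer_singleton_iff.mpr rfl
  have het : e ⟨t, htH⟩ = r 2 := by
    apply d4_center
    · intro w
      obtain ⟨⟨c, hc⟩, rfl⟩ := e.surjective w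
      rw [← map_mul, ← map_mul]
      congr 1
      apply Subtype.ext
      change t * c = c * t
      rw [hH] at hc
      exact (mem_centralizer_singleton_iff.mp hc).symm
    · intro h
      have h1 : (⟨t, htH⟩ : H) = 1 := e.injective (by rw [h, map_one])
      have h2 : t = 1 := congrArg Subtype.val h1
      rw [h2, orderOf_one] at ht
      omega
  have hu : ((e.symm (r 1) : H) : G) ∈ H := (e.symm (r 1)).2
  have heu : e ⟨_, hu⟩ = r 1 := by
    have : (⟨((e.symm (r 1) : H) : G), hu⟩ : H) = e.symm (r 1) := rfl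
    rw [this, MulEquiv.apply_symm_apply]
  refine ⟨((e.symm (r 1) : H) : G), hu, heu, ?_, ?_, fun _ => het, ?_⟩
  · rw [Subgroup.orderOf_coe, ← e.orderOf_eq, MulEquiv.apply_symm_apply, orderOf_r_one]
  · have h1 : (⟨((e.symm (r 1) : H) : G), hu⟩ : H) * ⟨_, hu⟩ = ⟨t, htH⟩ := by
      apply e.injective
      rw [map_mul, heu, het]
      decide
    exact congrArg Subtype.val h1
  · intro h hh
    constructor
    · intro hm
      obtain ⟨i, hi⟩ := mem_zpowers_iff.mp hm
      refine ⟨(i : ZMod 4), ?_⟩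
      have h1 : (⟨h, hh⟩ : H) = (⟨_, hu⟩ : H) ^ i := by
        apply Subtype.ext
        change h = _
        rw [Subgroup.coe_zpow]
        exact hi.symm
      rw [h1, map_zpow, heu, r_one_zpow]
    · rintro ⟨i, hi⟩
      have h1 : (⟨h, hh⟩ : H) = (⟨_, hu⟩ : H) ^ (i.val) := by
        apply e.injective
        rw [hi, map_pow, heu, r_one_pow, ZMod.natCast_zmod_val]
      have h2 : h = ((e.symm (r 1) : H) : G) ^ i.val := by
        have := congrArg Subtype.val h1
        simpa using this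
      rw [h2]
      exact pow_mem (mem_zpowers _) _

theorem d8_core [Fintype G] {t : G} (ht : orderOf t = 2) {H : Subgroup G} (hH : H = centralizer ({t} : Set G)) (e : H ≃* DihedralGroup 4)
    (hall : ∀ w ∈ H, orderOf w = 2 → IsConj t w) :
    ∃ (a : ℕ) (s : ℤ), 0 < a ∧ (s = 1 ∨ s = 2) ∧ ((Nat.card G : ℚ) * (1 - ((s : ℚ) - 3) ^ 2 / (a + 1) + (s : ℚ) ^ 2 / a) = 256) := by
  classical
  obtain ⟨u, hu, heu, hu4, huu, het', hmem⟩ := d8_setup ht hH e
  have htH : t ∈ H := by rw [hH]; exact mem_centralizer_singleton_iff.mpr rfl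
  have het := het' htH
  set C := zpowers u with hC
  have hCH : C ≤ H := by rw [hC, zpowers_le]; exact hu
  have hcomm : ∀ g ∈ C, ∀ x ∈ C, g⁻¹ * x * g = x := by
    intro g hg x hx
    obtain ⟨i, rfl⟩ := mem_zpowers_iff.mp hg
    obtain ⟨j, rfl⟩ := mem_zpowers_iff.mp hx
    rw [← zpow_neg, ← zpow_add, ← zpow_add]
    congr 1; ring
  have hyo : orderOf (⟨u, mem_zpowers u⟩ : C) = 2 ^ (0 + 2) := by rw [← Subgroup.orderOf_coe]; exact hu4
  obtain ⟨μ, -, hμy⟩ := exists_mu (C := C) (K := ⊥) (by simp) hyo (by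
    intro c
    obtain ⟨i, hi⟩ := mem_zpowers_iff.mp c.2
    refine ⟨1, rfl, i, ?_⟩
    rw [one_mul]
    apply Subtype.ext
    rw [← hi]; simp)
  have hμ1 : μ ≠ 1 := by
    intro h
    rw [h] at hμy
    change orderOf (1 : ℂˣ) = 4 at hμy
    rw [orderOf_one] at hμy; omega
  have hμ2 : μ ^ 2 ≠ 1 := by
    intro h
    have h1 : (μ ⟨u, mem_zpowers u⟩) ^ 2 = 1 := DFunLike.congr_fun h ⟨u, mem_zpowers u⟩
    have h2 := orderOf_dvd_of_pow_eq_one h1
    rw [hμy] at h2; omega
  have hinvC : ∀ g ∈ H, g ∉ C → ∀ x ∈ C, g⁻¹ * x * g = x⁻¹ := by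
    intro g hg hgC x hx
    have hxH := hCH hx
    obtain ⟨j, hj⟩ := (hmem x hxH).mp hx
    rcases d4_cases (e ⟨g, hg⟩) with ⟨i, hi⟩ | ⟨i, hi⟩
    · exact absurd ((hmem g hg).mpr ⟨i, hi⟩) hgC
    · have h1 : (⟨g, hg⟩ : H)⁻¹ * ⟨x, hxH⟩ * ⟨g, hg⟩ = (⟨x, hxH⟩ : H)⁻¹ := by
        apply e.injective
        rw [map_mul, map_mul, map_inv, map_inv, hi, hj, d4_inv]
      exact congrArg Subtype.val h1
  have hidx : (C.subgroupOf H).index = 2 := by
    rw [Subgroup.index_eq_two_iff]
    refine ⟨e.symm (sr 0), ?_⟩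
    intro b
    have hb : b = ⟨(b : G), b.2⟩ := rfl
    have h1 : b * e.symm (sr 0) ∈ C.subgroupOf H ↔ ∃ i, e b * sr 0 = r i := by
      rw [mem_subgroupOf, hmem _ (b * e.symm (sr 0)).2]
      have : (⟨((b * e.symm (sr 0) : H) : G), (b * e.symm (sr 0)).2⟩ : H) = b * e.symm (sr 0) := rfl
      rw [this, map_mul, MulEquiv.apply_symm_apply]
    have h2 : b ∈ C.subgroupOf H ↔ ∃ i, e b = r i := by
      rw [mem_subgroupOf, hmem _ b.2]
    rw [h1, h2]
    rcases d4_cases (e b) with ⟨i, hi⟩ | ⟨i, hi⟩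
    · right
      refine ⟨⟨i, hi⟩, ?_⟩
      rintro ⟨j, hj⟩
      rw [hi] at hj
      exact d4_a i j hj
    · left
      refine ⟨⟨0 - i, by rw [hi]; exact d4_b i⟩, ?_⟩
      rintro ⟨j, hj⟩
      rw [hi] at hj
      exact d4_c i j hj
  have htC : t ∈ C := by rw [← huu]; exact mul_mem (mem_zpowers u) (mem_zpowers u)
  -- elements of C
  have hCel : ∀ x ∈ C, x = 1 ∨ x = u ∨ x = t ∨ x = u⁻¹ := by
    intro x hx
    have hxH := hCH hx
    obtain ⟨i, hi⟩ := (hmem x hxH).mp hx
    have hinj : ∀ y (hy : y ∈ H), e ⟨x, hxH⟩ = e ⟨y, hy⟩ → x = y := by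
      intro y hy h
      exact congrArg Subtype.val (e.injective h)
    have hcase := z4_cases i
    rcases hcase with rfl | rfl | rfl | rfl
    · left
      apply hinj 1 (one_mem H)
      rw [hi]
      have : (⟨1, one_mem H⟩ : H) = 1 := rfl
      rw [this, map_one]; rfl
    · right; left
      exact hinj u hu (by rw [hi, heu])
    · right; right; left
      exact hinj t htH (by rw [hi, het])
    · right; right; right
      apply hinj u⁻¹ (inv_mem hu)
      have : (⟨u⁻¹, inv_mem hu⟩ : H) = (⟨u, hu⟩ : H)⁻¹ := rfl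
      rw [hi, this, map_inv, heu]; decide
  have hsq : ∀ x ∈ C, x ≠ 1 → x = t ∨ x * x = t := by
    intro x hx hx1
    rcases hCel x hx with h | h | h | h
    · exact absurd h hx1
    · right; rw [h]; exact huu
    · left; exact h
    · right
      rw [h, ← mul_inv_rev, huu]
      exact inv_eq_of_mul_eq_one_left (by rw [← pow_two, ← ht]; exact pow_orderOf_eq_one t)
  have hTI : ∀ x ∈ C, x ≠ 1 → ∀ g : G, g⁻¹ * x * g ∈ C → g ∈ H := by
    intro x hx hx1 g hg
    have hg1 : g⁻¹ * x * g ≠ 1 := by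
      intro h
      apply hx1
      have : x = g * 1 * g⁻¹ := by rw [← h]; group
      rw [this]; group
    have ht1 : t ≠ 1 := by intro h; rw [h, orderOf_one] at ht; omega
    have htt : t * t = 1 := by rw [← pow_two, ← ht]; exact pow_orderOf_eq_one t
    have ho : ∀ y : G, orderOf (g⁻¹ * y * g) = orderOf y := by
      intro y
      have := orderOf_conj g⁻¹ y
      rwa [inv_inv] at this
    have h1 : g⁻¹ * t * g = t := by
      rcases hsq x hx hx1 with h | h
      · subst h
        rcases hsq _ hg hg1 with h2 | h2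
        · exact h2
        · exfalso
          have h3 : g⁻¹ * x * g * (g⁻¹ * x * g) = g⁻¹ * (x * x) * g := by group
          rw [h3, htt] at h2
          exact ht1 (by rw [← h2]; group)
      · have h3 : g⁻¹ * x * g * (g⁻¹ * x * g) = g⁻¹ * t * g := by rw [← h]; group
        rcases hsq _ hg hg1 with h2 | h2
        · rw [h2, htt] at h3
          exfalso
          apply ht1
          have : t = g * (g⁻¹ * t * g) * g⁻¹ := by group
          rw [this, ← h3]; group
        · rw [← h3]; exact h2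
    rw [hH, mem_centralizer_singleton_iff]
    calc g * t = g * (g⁻¹ * t * g) := by rw [h1]
      _ = t * g := by group
  obtain ⟨f, hf1, hf2, hf3, hf4, hf5, hf6⟩ := exceptional hCH hidx μ hμ1 hμ2
    (by
      intro g hg x hx hgx
      congr 1
      exact Subtype.ext (hcomm g hg x hx))
    (by
      intro g hg hgC x hx
      have h1 := hinvC g hg hgC x hx
      refine ⟨by rw [h1]; exact inv_mem hx, ?_⟩
      rw [← map_inv]
      congr 1
      exact Subtype.ext h1)
    (by
      intro x hx hμx g hg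
      apply hTI x hx _ g hg
      rintro rfl
      exact hμx (map_one μ))
  -- values
  have hμu4 : (((μ ⟨u, mem_zpowers u⟩ : ℂˣ) : ℂ)) ^ 2 = -1 := by
    have h4 : (((μ ⟨u, mem_zpowers u⟩ : ℂˣ) : ℂ)) ^ 4 = 1 := by
      have := congrArg Units.val (pow_orderOf_eq_one (μ ⟨u, mem_zpowers u⟩))
      rwa [hμy, Units.val_pow_eq_pow_val, Units.val_one] at this
    have h2 : (((μ ⟨u, mem_zpowers u⟩ : ℂˣ) : ℂ)) ^ 2 ≠ 1 := by
      intro h
      have h1 : (μ ⟨u, mem_zpowers u⟩) ^ 2 = 1 := Units.ext (by rw [Units.val_pow_eq_pow_val, Units.val_one]; exact h)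
      have h3 := orderOf_dvd_of_pow_eq_one h1
      rw [hμy] at h3; omega
    have h3 : (((μ ⟨u, mem_zpowers u⟩ : ℂˣ) : ℂ) ^ 2 - 1) * (((μ ⟨u, mem_zpowers u⟩ : ℂˣ) : ℂ) ^ 2 + 1) = 0 := by
      linear_combination h4
    rcases mul_eq_zero.mp h3 with h | h
    · exact absurd (by linear_combination h) h2
    · linear_combination h
  set m : ℂ := ((μ ⟨u, mem_zpowers u⟩ : ℂˣ) : ℂ) with hm
  have hm0 : m ≠ 0 := Units.ne_zero _
  have hminv : m⁻¹ = - m := by
    apply mul_left_cancel₀ hm0
    rw [mul_inv_cancel₀ hm0]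
    linear_combination hμu4
  have hm1 : m ≠ 1 := by
    intro h; rw [h] at hμu4; norm_num at hμu4
  have hfu : f u = 2 := by
    rw [hf6 u (mem_zpowers u) (by intro h; apply hm1; rw [hm, h]; rfl), Units.val_inv_eq_inv_val, ← hm, hminv]
    ring
  have hmt : ((μ ⟨t, htC⟩ : ℂˣ) : ℂ) = -1 := by
    have h1 : (⟨t, htC⟩ : C) = (⟨u, mem_zpowers u⟩ : C) * ⟨u, mem_zpowers u⟩ := Subtype.ext huu.symm
    rw [h1, map_mul, Units.val_mul, ← hm, ← pow_two, hμu4]
  have hft : f t = 4 := by
    rw [hf6 t htC (by intro h; rw [h] at hmt; norm_num at hmt), Units.val_inv_eq_inv_val, hmt]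
    norm_num
  have hfcl : IsClassFunction G f := (isGeneralizedCharacter_iff_inner.mp hf1).1
  have hfui : f u⁻¹ = 2 := by
    have hmi : ((μ ⟨u⁻¹, inv_mem (mem_zpowers u)⟩ : ℂˣ) : ℂ) = -m := by
      have h1 : (⟨u⁻¹, inv_mem (mem_zpowers u)⟩ : C) = (⟨u, mem_zpowers u⟩ : C)⁻¹ := rfl
      rw [h1, map_inv, Units.val_inv_eq_inv_val, ← hm, hminv]
    have hne : μ ⟨u⁻¹, inv_mem (mem_zpowers u)⟩ ≠ 1 := by
      intro h
      rw [h, Units.val_one] at hmi
      have h2 : m ^ 2 = 1 := by
        have : m = -1 := by linear_combination (1 : ℂ) * hmi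
        rw [this]; norm_num
      rw [hμu4] at h2; norm_num at h2
    rw [hf6 u⁻¹ (inv_mem (mem_zpowers u)) hne, Units.val_inv_eq_inv_val, hmi, inv_neg, hminv]
    ring
  have ht1 : t ≠ 1 := by intro h; rw [h, orderOf_one] at ht; omega
  have htt : t * t = 1 := by rw [← pow_two, ← ht]; exact pow_orderOf_eq_one t
  set S : Set G := {x | x ∈ C ∧ x ≠ 1} with hS
  set φ : H → ℂ := fun h => if (h : G) ∈ S then f h else 0 with hφ
  have hSH : S ⊆ H := fun x hx => hCH hx.1
  have hHS : ∀ h ∈ H, ∀ s ∈ S, h * s * h⁻¹ ∈ S := by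
    intro h hh s hs
    have h1 : h * s * h⁻¹ = s ∨ h * s * h⁻¹ = s⁻¹ := by
      by_cases hc : h⁻¹ ∈ C
      · left
        have := hcomm _ hc s hs.1
        rwa [inv_inv] at this
      · right
        have := hinvC _ (inv_mem hh) hc s hs.1
        rwa [inv_inv] at this
    rcases h1 with h1 | h1
    · rw [h1]; exact hs
    · rw [h1]; exact ⟨inv_mem hs.1, inv_ne_one.mpr hs.2⟩
  have hTI' : ∀ g : G, g ∉ H → ∀ s ∈ S, g * s * g⁻¹ ∉ S := by
    intro g hg s hs hc
    apply hg
    have := hTI s hs.1 hs.2 g⁻¹ (by rw [inv_inv]; exact hc.1)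
    exact inv_mem_iff.mp this
  have hinvS : ∀ s ∈ S, s⁻¹ ∈ S := fun s hs => ⟨inv_mem hs.1, inv_ne_one.mpr hs.2⟩
  have hφcl : IsClassFunction H φ := by
    intro g h
    have h1 : ((h * g * h⁻¹ : H) : G) ∈ S ↔ (g : G) ∈ S := by
      constructor
      · intro h2
        have h3 := hHS (h : G)⁻¹ (inv_mem h.2) _ h2
        have e1 : (h : G)⁻¹ * ((h * g * h⁻¹ : H) : G) * (h : G)⁻¹⁻¹ = g := by
          push_cast; group
        rwa [e1] at h3
      · intro h2
        exact hHS h h.2 g h2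
    simp only [hφ, h1]
    congr 1
    exact hfcl g h
  have hφS : ∀ x : H, (x : G) ∉ S → φ x = 0 := by
    intro x hx
    simp only [hφ]
    rw [if_neg hx]
  have hind : ∀ g, indFun H φ g = f g := by
    intro g
    have hx : ∀ x : G, extendByZero H φ (x⁻¹ * g * x) = if x⁻¹ * g * x ∈ S then f g else 0 := by
      intro x
      by_cases h1 : x⁻¹ * g * x ∈ S
      · rw [if_pos h1, H4.extendByZero_mem H φ (hSH h1), hφ]
        simp only
        rw [if_pos h1]
        have := hfcl g x⁻¹
        rwa [inv_inv] at this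
      · rw [if_neg h1]
        by_cases h2 : x⁻¹ * g * x ∈ H
        · rw [H4.extendByZero_mem H φ h2]
          exact hφS ⟨_, h2⟩ h1
        · exact H4.extendByZero_not_mem H φ h2
    unfold indFun
    rw [Finset.sum_congr rfl fun x _ => hx x]
    by_cases hfg : f g = 0
    · simp [hfg]
    · obtain ⟨c, hc, hc2⟩ := hf5 g hfg
      have hcS : c⁻¹ * g * c ∈ S := ⟨hc, by
        intro h
        apply hc2
        have : (⟨c⁻¹ * g * c, hc⟩ : C) = 1 := Subtype.ext h
        rw [this, map_one]⟩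
      have h3 : ∀ x : G, x⁻¹ * g * x ∈ S ↔ c⁻¹ * x ∈ H := by
        intro x
        constructor
        · intro h
          by_contra hn
          have h4 := hTI' (c⁻¹ * x) hn _ h
          apply h4
          have e1 : c⁻¹ * x * (x⁻¹ * g * x) * (c⁻¹ * x)⁻¹ = c⁻¹ * g * c := by group
          rw [e1]; exact hcS
        · intro h
          have h4 := hHS (c⁻¹ * x)⁻¹ (inv_mem h) _ hcS
          have e1 : (c⁻¹ * x)⁻¹ * (c⁻¹ * g * c) * (c⁻¹ * x)⁻¹⁻¹ = x⁻¹ * g * x := by group
          rwa [e1] at h4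
      rw [Finset.sum_ite, Finset.sum_const_zero, add_zero, Finset.sum_const, nsmul_eq_mul]
      have h5 : (Finset.univ.filter (fun x : G => x⁻¹ * g * x ∈ S)).card = Nat.card H := by
        rw [Nat.card_eq_fintype_card, Fintype.card_subtype]
        apply Finset.card_nbij' (fun x => c⁻¹ * x) (fun x => c * x)
        · intro x hx
          simp only [Finset.coe_filter, Finset.mem_univ, true_and, Set.mem_setOf_eq] at hx ⊢
          exact (h3 x).mp hx
        · intro x hx
          simp only [Finset.coe_filter, Finset.mem_univ, true_and, Set.mem_setOf_eq] at hx ⊢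
          rw [h3, inv_mul_cancel_left]
          exact hx
        · intro x _; simp
        · intro x _; simp
      rw [h5]
      have h6 : (Nat.card H : ℂ) ≠ 0 := by exact_mod_cast Nat.card_pos.ne'
      field_simp
  have hmain := Cfsg.Agent.S0849.result H S hSH hHS hTI' hinvS φ hφcl hφS t t ht ht
  simp only [hind] at hmain
  have hcardH : Nat.card H = 8 := by rw [Nat.card_congr e.toEquiv, DihedralGroup.nat_card]
  -- the local sum
  have hloc : ∑ᶠ p ∈ {p : H × H | IsConj t (p.1 : G) ∧ IsConj t (p.2 : G)}, φ (p.1 * p.2) = 32 := by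
    have hiff : ∀ h : H, IsConj t (h : G) ↔ (e h ≠ 1 ∧ e h * e h = 1) := by
      intro h
      constructor
      · intro hc
        obtain ⟨c, hc⟩ := isConj_iff.mp hc
        constructor
        · intro h1
          have h2 : h = 1 := e.injective (by rw [h1, map_one])
          rw [h2] at hc
          apply ht1
          have : t = c⁻¹ * (c * t * c⁻¹) * c := by group
          rw [this, hc]; simp
        · rw [← map_mul]
          have : h * h = 1 := by
            apply Subtype.ext
            change (h : G) * h = 1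
            rw [← hc]
            have : c * t * c⁻¹ * (c * t * c⁻¹) = c * (t * t) * c⁻¹ := by group
            rw [this, htt]; group
          rw [this, map_one]
      · rintro ⟨h1, h2⟩
        apply hall _ h.2
        rw [Subgroup.orderOf_coe, ← e.orderOf_eq]
        exact orderOf_eq_prime (by rw [pow_two]; exact h2) h1
    have hRs : {p : H × H | IsConj t (p.1 : G) ∧ IsConj t (p.2 : G)} =
        ((Finset.univ.filter (fun p : H × H => IsConj t (p.1 : G) ∧ IsConj t (p.2 : G)) : Finset (H × H)) : Set (H × H)) := by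
      ext p; simp
    rw [hRs, finsum_mem_coe_finset]
    have hφe : ∀ h : H, φ h = ((d4f (e h) : ℕ) : ℂ) := by
      intro h
      by_cases hh : (h : G) ∈ S
      · have h1 : φ h = f h := by simp only [hφ]; rw [if_pos hh]
        rw [h1]
        rcases hCel _ hh.1 with h2 | h2 | h2 | h2
        · exact absurd h2 hh.2
        · rw [h2, hfu]
          have : h = ⟨u, hu⟩ := Subtype.ext h2
          rw [this, heu]
          have : d4f (r 1) = 2 := by decide
          rw [this]; norm_num
        · rw [h2, hft]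
          have : h = ⟨t, htH⟩ := Subtype.ext h2
          rw [this, het]
          have : d4f (r 2) = 4 := by decide
          rw [this]; norm_num
        · rw [h2, hfui]
          have : h = (⟨u, hu⟩ : H)⁻¹ := Subtype.ext h2
          rw [this, map_inv, heu]
          have : d4f (r 1)⁻¹ = 2 := by decide
          rw [this]; norm_num
      · rw [hφS h hh]
        have h1 : d4f (e h) = 0 := by
          rcases d4_cases (e h) with ⟨i, hi⟩ | ⟨i, hi⟩
          · have h2 : (h : G) ∈ C := (hmem _ h.2).mpr ⟨i, hi⟩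
            have h3 : (h : G) = 1 := by
              by_contra h4; exact hh ⟨h2, h4⟩
            have h4 : h = 1 := Subtype.ext h3
            rw [h4, map_one]; decide
          · rw [hi]; exact d4_d i
        rw [h1]; norm_num
    rw [Finset.sum_congr rfl fun p _ => hφe (p.1 * p.2)]
    have h32 := congrArg (Nat.cast (R := ℂ)) d4_count
    rw [Nat.cast_sum] at h32
    have h33 : ((32 : ℕ) : ℂ) = 32 := by norm_num
    rw [← h33, ← h32]
    refine Finset.sum_equiv (e.toEquiv.prodCongr e.toEquiv) ?_ ?_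
    · rintro ⟨a, b⟩
      simp only [Finset.mem_filter, Finset.mem_univ, true_and]
      rw [hiff, hiff]
      rfl
    · rintro ⟨a, b⟩ _
      rw [map_mul]
      rfl
  rw [hloc] at hmain
  have hps := pair_sum t f
  rw [hmain, ← hH, hcardH] at hps
  obtain ⟨χ₁, χ₂, hn1, hn2, hn12, hdeg, hfx⟩ := norm_three_chars hf1 hf2 hf3 hf4
  have hidxH : (Nat.card G : ℂ) = 8 * (H.index : ℂ) := by
    have := H.card_mul_index
    rw [hcardH] at this
    rw [← this]; push_cast; ring
  have hGc : (Nat.card G : ℂ) ≠ 0 := by exact_mod_cast Nat.card_pos.ne'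
  have hirr : ∑ x : G, ∑ y : G, f ((x * t * x⁻¹) * (y * t * y⁻¹)) =
      (Nat.card G : ℂ) ^ 2 * (1 - ((χ₁ : G → ℂ) t) ^ 2 / (χ₁ : G → ℂ) 1 + ((χ₂ : G → ℂ) t) ^ 2 / (χ₂ : G → ℂ) 1) := by
    have h1 : ∀ x y : G, f ((x * t * x⁻¹) * (y * t * y⁻¹)) = 1 - (χ₁ : G → ℂ) ((x * t * x⁻¹) * (y * t * y⁻¹)) +
        (χ₂ : G → ℂ) ((x * t * x⁻¹) * (y * t * y⁻¹)) := fun x y => hfx _
    simp only [h1, Finset.sum_add_distrib, Finset.sum_sub_distrib]
    rw [pair_sum_irr, pair_sum_irr, Finset.sum_const, Finset.sum_const, Finset.card_univ, nsmul_eq_mul, nsmul_eq_mul,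
      Nat.card_eq_fintype_card]
    ring
  rw [hirr] at hps
  obtain ⟨a, ha, ha2⟩ := degree_pos χ₂
  have htinv : t⁻¹ = t := inv_eq_of_mul_eq_one_left htt
  have hreal : IsConj t t⁻¹ := by rw [htinv]
  have ht4 : t ^ 4 = 1 := by
    have : t ^ 4 = (t * t) ^ 2 := by rw [← pow_two, ← pow_mul]
    rw [this, htt, one_pow]
  obtain ⟨s, hs⟩ := char_ord4_int (H4.IsIrr.isCharacter χ₂.2) ht4 hreal
  have hft2 := hfx t
  rw [hft, hs] at hft2
  have hs1 : (χ₁ : G → ℂ) t = (s : ℂ) - 3 := by linear_combination (1 : ℂ) * hft2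
  refine ⟨a, s, ha, ?_, ?_⟩
  · -- column orthogonality
    have hso := second_orthogonality (G := G) t t
    rw [if_pos (IsConj.refl t), ← hH, hcardH] at hso
    set i0 : IrrCharacter G := ⟨_, isIrrCharacter_trivial⟩ with hi0
    have hnn : ∀ χ : IrrCharacter G, (χ : G → ℂ) t * conj ((χ : G → ℂ) t) = ((Complex.normSq ((χ : G → ℂ) t) : ℝ) : ℂ) := by
      intro χ; rw [Complex.mul_conj]
    simp only [hnn] at hso
    rw [← Complex.ofReal_sum] at hso
    have hso2 : ∑ χ : IrrCharacter G, Complex.normSq ((χ : G → ℂ) t) = 8 := by exact_mod_cast hso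
    have h01 : i0 ≠ χ₁ := by intro h; apply hn1; rw [← h]
    have h02 : i0 ≠ χ₂ := by intro h; apply hn2; rw [← h]
    have hle : ∑ χ ∈ ({i0, χ₁, χ₂} : Finset (IrrCharacter G)), Complex.normSq ((χ : G → ℂ) t) ≤ 8 := by
      rw [← hso2]
      exact Finset.sum_le_sum_of_subset_of_nonneg (Finset.subset_univ _) (fun χ _ _ => Complex.normSq_nonneg _)
    rw [Finset.sum_insert (by simp [h01, h02]), Finset.sum_insert (by simp [hn12]), Finset.sum_singleton, hs1, hs] at hle
    have hv0 : (i0 : G → ℂ) t = 1 := rfl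
    have hc1 : Complex.normSq ((s : ℂ) - 3) = ((s : ℝ) - 3) ^ 2 := by
      have : ((s : ℂ) - 3) = (((s : ℝ) - 3 : ℝ) : ℂ) := by push_cast; ring
      rw [this, Complex.normSq_ofReal]; ring
    have hc2 : Complex.normSq (s : ℂ) = (s : ℝ) ^ 2 := by
      have : (s : ℂ) = ((s : ℝ) : ℂ) := by push_cast; ring
      rw [this, Complex.normSq_ofReal]; ring
    rw [hv0, hc1, hc2, Complex.normSq_one] at hle
    have hle2 : 1 + ((s - 3) ^ 2 + s ^ 2) ≤ 8 := by exact_mod_cast hle
    have h1 : s ≤ 2 := by nlinarith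
    have h2 : 1 ≤ s := by nlinarith
    omega
  · have h1 : ((Nat.card G : ℂ)) * (1 - ((s : ℂ) - 3) ^ 2 / (a + 1) + (s : ℂ) ^ 2 / a) = 256 := by
      rw [hs1, hs, hdeg, ha2] at hps
      apply mul_left_cancel₀ hGc
      rw [← mul_assoc, ← pow_two, hps, hidxH]
      norm_num
      ring
    have h2 : (((Nat.card G : ℚ) * (1 - ((s : ℚ) - 3) ^ 2 / (a + 1) + (s : ℚ) ^ 2 / a) : ℚ) : ℂ) = ((256 : ℚ) : ℂ) := by
      push_cast
      exact h1
    exact_mod_cast h2

end

end Cfsg.Agent.H1
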