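import Mathlib
import Cfsg.Prelude.Def_ChevWords

set_option autoImplicit false

namespace Cfsg.Agent.H1.FAut

open Cfsg Cfsg.Lie Matrix

variable {F : Type*} [Field F] (D : ChevalleyDatum)

theorem xMat_map (f : F ≃+* F) (r : Fin D.nroots) (t : F) : (D.xMat F r t).map f = D.xMat F r (f t) := by
  ext row col
  rw [Matrix.map_apply]
  rcases col with i | s
  · rcases row with i' | u
    · simp only [ChevalleyDatum.xMat, Matrix.of_apply]
      split_ifs <;> simp
    · simp only [ChevalleyDatum.xMat, Matrix.of_apply]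
      split_ifs <;> simp
  · rcases row with i' | u
    · simp only [ChevalleyDatum.xMat, Matrix.of_apply]
      split_ifs <;> simp
    · simp only [ChevalleyDatum.xMat, Matrix.of_apply]
      split_ifs <;> simp [map_list_sum, Function.comp_def]

def E (f : F ≃+* F) : GL D.Idx F ≃* GL D.Idx F := Units.mapEquiv (f.mapMatrix (m := D.Idx)).toMulEquiv

theorem E_mem (f : F ≃+* F) (g : GL D.Idx F) (hg : g ∈ D.group F) : E D f g ∈ D.group F := by
  have h1 : D.group F ≤ (D.group F).comap (E D f).toMonoidHom := by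
    refine (Subgroup.closure_le _).mpr ?_
    rintro g ⟨r, t, h⟩
    refine Subgroup.subset_closure ⟨r, f t, ?_⟩
    change ((g : Matrix D.Idx D.Idx F)).map f = _
    rw [h, xMat_map]
  exact h1 hg

theorem E_symm (f : F ≃+* F) (g : GL D.Idx F) : E D f.symm (E D f g) = g := by
  apply Units.ext
  ext i j
  change f.symm (f ((g : Matrix D.Idx D.Idx F) i j)) = _
  simp

theorem E_symm' (f : F ≃+* F) (g : GL D.Idx F) : E D f (E D f.symm g) = g := by
  apply Units.ext
  ext i j
  change f (f.symm ((g : Matrix D.Idx D.Idx F) i j)) = _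
  simp

theorem s1080_aux (f : F ≃+* F) :
    ∃ α : ↥(D.group F) ≃* ↥(D.group F), ∀ (g : ↥(D.group F)) (r : ℕ) (t : F), r < D.nroots →
      ((g : GL D.Idx F) : Matrix D.Idx D.Idx F) = D.x F r t → ((α g : GL D.Idx F) : Matrix D.Idx D.Idx F) = D.x F r (f t) := by
  refine ⟨{ toFun := fun g => ⟨E D f g, E_mem D f g g.2⟩
            invFun := fun g => ⟨E D f.symm g, E_mem D f.symm g g.2⟩
            left_inv := fun g => Subtype.ext (E_symm D f g)
            right_inv := fun g => Subtype.ext (E_symm' D f g)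
            map_mul' := fun g h => Subtype.ext (map_mul (E D f) (g : GL D.Idx F) (h : GL D.Idx F)) }, ?_⟩
  intro g r t hr h
  change ((g : GL D.Idx F) : Matrix D.Idx D.Idx F).map f = _
  rw [h, ChevalleyDatum.x, ChevalleyDatum.x, dif_pos hr, dif_pos hr, xMat_map]

end Cfsg.Agent.H1.FAut
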