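import Mathlib
import Cfsg.Agent.H1.Hall

open scoped commutatorElement Pointwise

namespace Cfsg.Agent.H1

open Cfsg Subgroup

variable {G : Type*} [Group G]

/-- A minimal normal subgroup of a finite solvable primitive group is regular. -/
theorem minimal_normal_regular [Finite G] [Group.IsSolvable G] {Ω : Type*} [Nonempty Ω] [MulAction G Ω]
    [FaithfulSMul G Ω] (hprim : MulAction.IsPreprimitive G Ω) (M : Subgroup G) [M.Normal] (hM : M ≠ ⊥)
    (hmin : ∀ K : Subgroup G, K.Normal → K ≤ M → K = ⊥ ∨ K = M) :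
    MulAction.IsPretransitive M Ω ∧ (∀ ω : Ω, MulAction.stabilizer M ω = ⊥) := by
  haveI := hprim
  have hfix : MulAction.fixedPoints M Ω ≠ Set.univ := by
    intro h
    apply hM
    rw [eq_bot_iff]
    intro m hm
    rw [Subgroup.mem_bot]
    apply eq_of_smul_eq_smul (α := Ω)
    intro x
    have h1 : x ∈ MulAction.fixedPoints M Ω := by rw [h]; trivial
    rw [one_smul]
    exact h1 ⟨m, hm⟩
  haveI htr : MulAction.IsPretransitive M Ω := MulAction.IsQuasiPreprimitive.isPretransitive_of_normal hfix
  refine ⟨htr, ?_⟩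
  haveI : Group.IsSolvable M := inferInstance
  haveI := isMulCommutative_of_minimal_of_solvable M hM hmin
  intro ω
  rw [eq_bot_iff]
  intro m hm
  rw [Subgroup.mem_bot]
  apply Subtype.ext
  apply eq_of_smul_eq_smul (α := Ω)
  intro x
  obtain ⟨n, rfl⟩ := MulAction.exists_smul_eq M ω x
  have h2 : m • n • ω = n • ω := by
    rw [← mul_smul, mul_comm' m n, mul_smul]
    have : m • ω = ω := hm
    rw [this]
  rw [OneMemClass.coe_one, one_smul]
  exact h2

end Cfsg.Agent.H1
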