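import Mathlib
import Cfsg.Agent.H1.ZS3
import Cfsg.Agent.L0.GenFit

set_option autoImplicit false
set_option linter.style.haveILetI false
set_option linter.unusedVariables false
set_option linter.unusedSectionVars false
set_option linter.unusedSimpArgs false

/-! Quasisimple groups of 2-rank one. -/

namespace Cfsg.Agent.H1

open Cfsg Subgroup

universe u

theorem UI_of_rank_one {G : Type u} [Group G] (h : PRankLE 2 1 G) : UI G := by
  intro a b ha hb hab
  by_contra hne
  have ha1 : a ≠ 1 := by rintro rfl; rw [orderOf_one] at ha; omega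
  have hb1 : b ≠ 1 := by rintro rfl; rw [orderOf_one] at hb; omega
  obtain ⟨K, hK, -⟩ := exists_klein ha1 hb1 hne (inv_mul_self_of_two ha) (inv_mul_self_of_two hb) hab.eq
  haveI := hK
  have h1 := h K IsKleinFour.isMulCommutative (fun a ha => by rw [pow_two]; exact klein_sq hK ha)
  rw [IsKleinFour.card_four] at h1
  omega

/-- quasisimple groups with commuting involutions equal: all involutions are central -/
theorem qs_central {L : Type u} [Group L] [Finite L] (hL : IsQuasisimple L) (heven : Even (Nat.card L)) (hU : UI L) {t : L} (ht : orderOf t = 2) :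
    t ∈ center L := by
  have hO : oddCore L ≤ center L := by
    rcases L0.quasisimple_normal_cases hL (oddCore L) with h | h
    · exfalso
      have h1 := L0.odd_card_oddCore L
      rw [h, Subgroup.card_top] at h1
      exact (Nat.not_even_iff_odd.mpr h1) heven
    · exact h
  have h1 : ∀ g : L, t * g * t⁻¹ * g⁻¹ ∈ center L := fun g => hO (brauer_suzuki hU ht g)
  -- the map g ↦ [t,g] is a homomorphism to an abelian group, and L is perfect
  have h2 : ∀ a b : L, t * (a * b) * t⁻¹ * (a * b)⁻¹ = (t * a * t⁻¹ * a⁻¹) * (t * b * t⁻¹ * b⁻¹) := by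
    intro a b
    have h3 := mem_center_iff.mp (h1 b) a
    calc t * (a * b) * t⁻¹ * (a * b)⁻¹ = (t * a * t⁻¹) * (t * b * t⁻¹ * b⁻¹) * a⁻¹ := by group
      _ = (t * a * t⁻¹ * a⁻¹) * (a * (t * b * t⁻¹ * b⁻¹)) * a⁻¹ := by group
      _ = (t * a * t⁻¹ * a⁻¹) * ((t * b * t⁻¹ * b⁻¹) * a) * a⁻¹ := by rw [h3]
      _ = _ := by group
  let f : L →* center L := MonoidHom.mk' (fun g => ⟨t * g * t⁻¹ * g⁻¹, h1 g⟩) (fun a b => Subtype.ext (h2 a b))
  have h4 : commutator L ≤ f.ker := by
    rw [commutator_def, Subgroup.commutator_le]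
    intro a _ b _
    rw [MonoidHom.mem_ker, map_commutatorElement, commutatorElement_eq_one_iff_mul_comm]
    apply Subtype.ext
    exact mem_center_iff.mp (f b).2 (f a)
  have h5 : commutator L = ⊤ := hL.1.commutator_eq_top
  rw [mem_center_iff]
  intro g
  have h6 : g ∈ f.ker := h4 (by rw [h5]; trivial)
  have h7 : t * g * t⁻¹ * g⁻¹ = 1 := congrArg Subtype.val (MonoidHom.mem_ker.mp h6)
  calc g * t = (t * g * t⁻¹ * g⁻¹) * (g * t) := by rw [h7, one_mul]
    _ = t * g := by group

theorem not_npc_of_perfect {L : Type u} [Group L] [Finite L] (hp : commutator L = ⊤) (heven : Even (Nat.card L)) :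
    ¬ HasNormalPComplement 2 L := by
  haveI : Fact (Nat.Prime 2) := ⟨Nat.prime_two⟩
  intro h
  obtain ⟨N, hN, hNc, k, hk⟩ := hasNormalPComplement_iff.mp h
  have h1 : IsPGroup 2 (L ⧸ N) := IsPGroup.of_card (n := k) (by rw [← Subgroup.index_eq_card, hk])
  have hNtop : N ≠ ⊤ := by
    rintro rfl
    rw [Subgroup.card_top] at hNc
    exact (Nat.not_even_iff_odd.mpr (Nat.coprime_two_right.mp hNc)) heven
  haveI : Nontrivial (L ⧸ N) := QuotientGroup.nontrivial_iff.mpr hNtop
  haveI : Group.IsNilpotent (L ⧸ N) := h1.isNilpotent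
  have h2 : commutator (L ⧸ N) ≠ ⊤ := by
    have : Group.IsSolvable (L ⧸ N) := inferInstance
    exact (Group.IsSolvable.commutator_lt_top_of_nontrivial (L ⧸ N)).ne
  apply h2
  have h3 : (commutator L).map (QuotientGroup.mk' N) = commutator (L ⧸ N) := by
    rw [commutator_def, commutator_def, Subgroup.map_commutator, ← MonoidHom.range_eq_map,
      MonoidHom.range_eq_top.mpr (QuotientGroup.mk'_surjective N)]
  rw [← h3, hp, ← MonoidHom.range_eq_map, MonoidHom.range_eq_top.mpr (QuotientGroup.mk'_surjective N)]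

/-- Sylow 2-subgroups of perfect groups whose commuting involutions coincide -/
theorem quat_of_perfect {L : Type u} [Group L] [Finite L] (hp : commutator L = ⊤) (heven : Even (Nat.card L)) (hU : UI L) (S : Sylow 2 L) :
    ∃ n : ℕ, Nonempty ((S : Subgroup L) ≃* QuaternionGroup (2 ^ (n + 1))) := by
  haveI : Fact (Nat.Prime 2) := ⟨Nat.prime_two⟩
  have hnc : ¬ IsCyclic S := fun h => not_npc_of_perfect hp heven (npc_of_cyclic_two S h)
  obtain ⟨n, hn, h⟩ := quat_iso S.isPGroup' (hU.unique S.isPGroup') hnc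
  obtain ⟨m, rfl⟩ : ∃ m, n = m + 1 := ⟨n - 1, by omega⟩
  exact ⟨m, h⟩

end Cfsg.Agent.H1
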