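import Mathlib
import Cfsg.Prelude.Def_ChevWords
import Cfsg.Prelude.Def_ChevB2
import Cfsg.Prelude.Def_ChevD4
import Cfsg.Prelude.Def_ChevE6
import Cfsg.Prelude.Def_ChevE7
import Cfsg.Prelude.Def_ChevE8
import Cfsg.Prelude.Def_ChevF4
import Cfsg.Prelude.Def_ChevG2

set_option autoImplicit false

namespace Cfsg.Agent.H1.XInj

open Cfsg Cfsg.Lie Matrix

variable {F : Type*} [Field F] (D : ChevalleyDatum)

theorem xMat_zero (r : Fin D.nroots) : D.xMat F r 0 = 1 := by
  ext row col
  rcases col with i | s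
  · rcases row with i' | u
    · simp [ChevalleyDatum.xMat, Matrix.of_apply, Matrix.one_apply]
    · simp [ChevalleyDatum.xMat, Matrix.of_apply, Matrix.one_apply]
  · rcases row with i' | u
    · simp only [ChevalleyDatum.xMat, Matrix.of_apply]
      split_ifs <;> simp
    · have hz : ((D.chainCoeff r.val s.val u.val).map fun km => ((km.2 : ℤ) : F) * (0 : F) ^ km.1).sum = 0 := by
        apply List.sum_eq_zero
        intro x hx
        rw [List.mem_map] at hx
        obtain ⟨km, hkm, rfl⟩ := hx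
        rw [ChevalleyDatum.chainCoeff, List.mem_flatMap] at hkm
        obtain ⟨e, _, he⟩ := hkm
        rw [List.mem_map] at he
        obtain ⟨q, _, rfl⟩ := he
        simp
      simp only [ChevalleyDatum.xMat, Matrix.of_apply, hz]
      by_cases h1 : u = s
      · subst h1
        split_ifs <;> simp_all
      · have h2 : (Sum.inr u : D.Idx) ≠ Sum.inr s := fun h => h1 (Sum.inr.inj h)
        rw [Matrix.one_apply_ne h2]
        split_ifs <;> simp_all

def good (D : ChevalleyDatum) : Prop := ∀ r : Fin D.nroots, D.negIdx.getD r.val 0 < D.nroots ∧ D.negIdx.getD r.val 0 ≠ r.val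

theorem x_eq_one (h : good D) (r : ℕ) (hr : r < D.nroots) (t : F) : D.x F r t = 1 ↔ t = 0 := by
  rw [ChevalleyDatum.x, dif_pos hr]
  constructor
  · intro h1
    obtain ⟨h2, h3⟩ := h ⟨r, hr⟩
    have h4 := congrFun (congrFun h1 (Sum.inr ⟨r, hr⟩)) (Sum.inr ⟨_, h2⟩)
    have h5 : (Sum.inr ⟨r, hr⟩ : D.Idx) ≠ Sum.inr ⟨_, h2⟩ := fun h => h3 (congrArg Fin.val (Sum.inr.inj h)).symm
    rw [Matrix.one_apply_ne h5] at h4
    have h6 : (⟨_, h2⟩ : Fin D.nroots) ≠ ⟨r, hr⟩ := fun h => h3 (congrArg Fin.val h)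
    simp only [ChevalleyDatum.xMat, Matrix.of_apply] at h4
    have h7 : ¬ ((⟨r, hr⟩ : Fin D.nroots) = ⟨_, h2⟩) := fun h => h6 h.symm
    rw [if_neg h6, if_neg h7] at h4
    simpa using h4
  · rintro rfl
    exact xMat_zero D _

theorem all_good (D : ChevalleyDatum) (hD : D ∈ [chevG2, chevB2, chevD4, chevF4, chevE6, chevE7, chevE8]) : good D := by
  simp only [List.mem_cons, List.not_mem_nil, or_false] at hD
  rcases hD with rfl | rfl | rfl | rfl | rfl | rfl | rfl <;> (unfold good; decide +kernel)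

end Cfsg.Agent.H1.XInj
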